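import Mathlib
import Cfsg.Agent.LeU.U33.Iso
import Cfsg.Agent.Comp.Ico.Iso
import Cfsg.Agent.Comp.Cent

set_option autoImplicit false
set_option maxRecDepth 100000

namespace Cfsg.Agent.LeU.U33
open Cfsg.Agent.Comp Cfsg.Agent.Schur Cfsg.Agent.Comp.Ico

def tw : List (List ℕ) := [[4, 0, 1, 3, 1, 2, 1, 0], [4, 2, 0, 1, 3, 2, 1, 0], [0, 4, 0, 1, 3, 2, 1],
  [1, 3, 2, 1, 0, 4, 0], [1, 2, 1, 4, 0, 1, 4, 2, 0, 1], [1, 2, 4, 1, 0, 4, 1, 2, 0, 1],
  [1, 0, 4, 3, 0, 1]]

/-- the point stabiliser -/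
noncomputable def HJ : Subgroup Spor.J2 := genW sJ J2.W0

theorem transJ : ∀ i < 100, ∃ g, phiJ g 0 = i :=
  repJ.trans (sch := [5, 0, 2, 3, 4, 1, 5, 0, 3, 4, 0, 1]) (by decide +kernel)

theorem stabJ : HJ.index = 100 ∧ ∀ g, g ∈ HJ ↔ phiJ g 0 = 0 :=
  repJ.stab_eq (by decide +kernel) (by norm_num) transJ (by decide +kernel)
    (J2.Top.index _ sJ presJ.sat)

theorem satJ : Sat sJ (R.map (subst tw)) :=
  repJ.sat_of_inj cardJ.2.2 (by decide +kernel) (sat_of_relsP J2.ok (by norm_num)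
    (show relsP (nat_lit 100) (nat_lit 7) (nat_lit 0) (nat_lit 7) J2.T _ = true by decide +kernel))

theorem tw_mem (x : ℕ) : ev sJ (tw.getD x []) ∈ HJ := by
  refine ev_mem_of_letters ?_
  by_cases hx : x < 7
  · revert x; decide +kernel
  · rw [List.getD_eq_default _ _ (show tw.length ≤ x from not_lt.1 hx)]; simp

theorem card_HJ : Nat.card HJ = 6048 := by
  have := Subgroup.index_mul_card HJ
  rw [stabJ.1, cardJ.2.1] at this
  omega

theorem isoJ : Nonempty (G ≃* HJ) := by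
  have := simple
  have := cardJ.1
  refine equiv_of_sat pres hR (fun x => ⟨_, tw_mem x⟩)
    (fun w hw => Subtype.ext ((map_ev _ HJ.subtype w).trans (satJ.subst w hw))) (x := 0)
    (by norm_num) (fun e => ?_) (card_HJ.trans card.2.1.symm).le
  have h1 := congrArg (fun g : HJ => phiJ g.1) e
  simp only [OneMemClass.coe_one, map_one] at h1
  rw [repJ.ev_eq (by decide +kernel)] at h1
  have h2 : ev (sig J2.T) (tw.getD 0 []) 1 = 2 := mem1_pt J2.ok (by norm_num) (by decide +kernel)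
  rw [h1] at h2
  exact absurd h2 (by decide)

end Cfsg.Agent.LeU.U33
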